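import Mathlib
import Cfsg.Agent.Lib.Helper19.KAlt.Defs5

/-!
# LW5 (S0748), package [EV1]: homogeneous + alternating group on some `k`-set + an odd induced
permutation on some `k`-set implies the full symmetric group on every `k`-set.
-/

set_option autoImplicit false

namespace Cfsg.Agent.Lib.Helper20.KAlt

open Cfsg.Agent.Lib.Helper75.LW Cfsg.Agent.Lib.Helper19.KAlt

universe u

/-- transport of induced permutations along an element of `G` mapping `Δ` onto `Δ'`. -/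
theorem ev1_transport {α : Type u} [DecidableEq α] (G : Subgroup (Equiv.Perm α))
    (Δ Δ' : Finset α) (h : Equiv.Perm α) (hh : h ∈ G) (hmap : ∀ a, a ∈ Δ ↔ h a ∈ Δ')
    (σ' : Equiv.Perm ↥Δ') :
    ∃ σ : Equiv.Perm ↥Δ, Equiv.Perm.sign σ = Equiv.Perm.sign σ' ∧
      ((∃ g ∈ G, ∀ x : ↥Δ, g (x : α) = σ x) → ∃ g ∈ G, ∀ x : ↥Δ', g (x : α) = σ' x) := by
  obtain ⟨e, he, he'⟩ : ∃ e : ↥Δ ≃ ↥Δ', (∀ x : ↥Δ, ((e x : ↥Δ') : α) = h x) ∧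
      (∀ y : ↥Δ', ((e.symm y : ↥Δ) : α) = h⁻¹ (y : α)) := by
    refine ⟨⟨fun x => ⟨h x, (hmap x).mp x.2⟩,
      fun y => ⟨h⁻¹ y, (hmap _).mpr (by simpa using y.2)⟩, ?_, ?_⟩, fun x => rfl, fun y => rfl⟩
    · intro x
      apply Subtype.ext
      simp
    · intro y
      apply Subtype.ext
      simp
  refine ⟨(e.trans σ').trans e.symm, Equiv.Perm.sign_trans_trans_symm σ' e, ?_⟩
  rintro ⟨g, hg, hgσ⟩
  refine ⟨h * g * h⁻¹, G.mul_mem (G.mul_mem hh hg) (G.inv_mem hh), ?_⟩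
  intro y
  have h2 := hgσ (e.symm y)
  have h3 : ((e.trans σ').trans e.symm) (e.symm y) = e.symm (σ' y) := by simp
  rw [Equiv.Perm.mul_apply, Equiv.Perm.mul_apply, ← he' y, h2, h3, he' (σ' y)]
  simp

theorem pkgEv1 : PkgEv1.{u} := by
  intro α _ _ G k hH hAlt hnE Δ hΔ σ
  obtain ⟨Δ0, hΔ0, hA⟩ := hAlt
  have hex : ∃ Δ1 : Finset α, Δ1.card = k ∧ ∃ g1 ∈ G, ∃ τ1 : Equiv.Perm ↥Δ1,
      (∀ x : ↥Δ1, g1 (x : α) = τ1 x) ∧ Equiv.Perm.sign τ1 ≠ 1 := by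
    by_contra hcon
    apply hnE
    intro Δ1 h1 g1 hg1 τ1 hτ1
    by_contra hs
    exact hcon ⟨Δ1, h1, g1, hg1, τ1, hτ1, hs⟩
  obtain ⟨Δ1, hΔ1, g1, hg1, τ1, hτ1, hs1⟩ := hex
  -- all even permutations of `Δ1` are induced
  have hE1 : ∀ σ1 : Equiv.Perm ↥Δ1, Equiv.Perm.sign σ1 = 1 →
      ∃ g ∈ G, ∀ x : ↥Δ1, g (x : α) = σ1 x := by
    intro σ1 hσ1
    obtain ⟨h, hh, hmap⟩ := hH Δ0 Δ1 hΔ0 hΔ1
    obtain ⟨σ0, hsign, himp⟩ := ev1_transport G Δ0 Δ1 h hh hmap σ1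
    apply himp
    apply hA
    rw [Equiv.Perm.mem_alternatingGroup, hsign, hσ1]
  -- all permutations of `Δ1` are induced
  have hF1 : ∀ σ1 : Equiv.Perm ↥Δ1, ∃ g ∈ G, ∀ x : ↥Δ1, g (x : α) = σ1 x := by
    intro σ1
    rcases Int.units_eq_one_or (Equiv.Perm.sign σ1) with h1 | h1
    · exact hE1 σ1 h1
    · have hτ : Equiv.Perm.sign τ1 = -1 := (Int.units_eq_one_or _).resolve_left hs1
      have hev : Equiv.Perm.sign (σ1 * τ1⁻¹) = 1 := by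
        rw [Equiv.Perm.sign_mul, Equiv.Perm.sign_inv, h1, hτ]
        simp
      obtain ⟨h, hh, hhσ⟩ := hE1 _ hev
      refine ⟨h * g1, G.mul_mem hh hg1, fun x => ?_⟩
      rw [Equiv.Perm.mul_apply, hτ1 x, hhσ (τ1 x)]
      simp
  obtain ⟨h, hh, hmap⟩ := hH Δ1 Δ hΔ1 hΔ
  obtain ⟨σ1, -, himp⟩ := ev1_transport G Δ1 Δ h hh hmap σ
  exact himp (hF1 σ1)

end Cfsg.Agent.Lib.Helper20.KAlt
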