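import Mathlib
import Cfsg.Agent.Lib.Helper19.KAlt.Defs5

/-!
# LW5 (S0748), package [EV2]: homogeneous + full symmetric group on every `k`-set implies
`k`-transitive.
-/

set_option autoImplicit false

namespace Cfsg.Agent.Lib.Helper20.KAlt

open Cfsg.Agent.Lib.Helper75.LW Cfsg.Agent.Lib.Helper19.KAlt

universe u

theorem pkgEv2 : PkgEv2.{u} := by
  intro α _ _ G k hH hFull x y
  classical
  obtain ⟨Δx, hΔx⟩ : ∃ s : Finset α, s = Finset.univ.map x := ⟨_, rfl⟩
  obtain ⟨Δy, hΔy⟩ : ∃ s : Finset α, s = Finset.univ.map y := ⟨_, rfl⟩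
  have hcx : Δx.card = k := by rw [hΔx, Finset.card_map, Finset.card_univ, Fintype.card_fin]
  have hcy : Δy.card = k := by rw [hΔy, Finset.card_map, Finset.card_univ, Fintype.card_fin]
  obtain ⟨g1, hg1, hmap⟩ := hH Δx Δy hcx hcy
  have hx : ∀ i, x i ∈ Δx := fun i => by
    rw [hΔx]
    exact Finset.mem_map_of_mem _ (Finset.mem_univ i)
  have hy : ∀ i, y i ∈ Δy := fun i => by
    rw [hΔy]
    exact Finset.mem_map_of_mem _ (Finset.mem_univ i)
  have hcard : Fintype.card (Fin k) = Fintype.card ↥Δy := by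
    rw [Fintype.card_coe, hcy, Fintype.card_fin]
  have hb1 : Function.Bijective (fun i : Fin k => (⟨g1 (x i), (hmap _).mp (hx i)⟩ : ↥Δy)) := by
    rw [Fintype.bijective_iff_injective_and_card]
    refine ⟨?_, hcard⟩
    intro i j hij
    have h := congrArg Subtype.val hij
    exact x.injective (g1.injective h)
  have hb2 : Function.Bijective (fun i : Fin k => (⟨y i, hy i⟩ : ↥Δy)) := by
    rw [Fintype.bijective_iff_injective_and_card]
    refine ⟨?_, hcard⟩
    intro i j hij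
    have h := congrArg Subtype.val hij
    exact y.injective h
  obtain ⟨e1, he1⟩ : ∃ e : Fin k ≃ ↥Δy, ∀ i, e i = ⟨g1 (x i), (hmap _).mp (hx i)⟩ :=
    ⟨Equiv.ofBijective _ hb1, fun i => rfl⟩
  obtain ⟨e2, he2⟩ : ∃ e : Fin k ≃ ↥Δy, ∀ i, e i = ⟨y i, hy i⟩ :=
    ⟨Equiv.ofBijective _ hb2, fun i => rfl⟩
  obtain ⟨g2, hg2, hσ⟩ := hFull Δy hcy (e1.symm.trans e2)
  refine ⟨g2 * g1, G.mul_mem hg2 hg1, fun i => ?_⟩
  have h1 := hσ (e1 i)
  have h2 : (e1.symm.trans e2) (e1 i) = e2 i := by simp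
  have h3 : ((e1 i : ↥Δy) : α) = g1 (x i) := by rw [he1 i]
  rw [h2, he2 i, h3] at h1
  rw [Equiv.Perm.mul_apply]
  exact h1

end Cfsg.Agent.Lib.Helper20.KAlt
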